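import Mathlib
import Cfsg.Agent.Lib.Helper14.Spec.Defs

/-!
# SPEC (S2362) package [MODEL]

The commutant of an irreducible endomorphism of a space over a finite field is a finite field
with `q ^ dim` elements (Schur + Wedderburn).
-/

set_option autoImplicit false

universe u

namespace Cfsg.Agent.Lib.Helper29.Spec

open Module Cfsg.Agent.Lib.Helper14.Spec

/-- **[MODEL]** -/
theorem pkgModel : PkgModel.{u} := by
  intro F _ _ W _ _ _ x hx
  classical
  obtain ⟨⟨w0, hw0⟩, hirr⟩ := hx
  haveI : Finite W := Module.finite_of_finite F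
  haveI : Finite (W →ₗ[F] W) :=
    Finite.of_injective (fun f : W →ₗ[F] W => (f : W → W)) DFunLike.coe_injective
  obtain ⟨C, hCdef⟩ : ∃ C : Subalgebra F (Module.End F W), C = Subalgebra.centralizer F {x} :=
    ⟨_, rfl⟩
  have hC : ∀ t : Module.End F W, t ∈ C ↔ t * x = x * t := by
    intro t
    rw [hCdef, Subalgebra.mem_centralizer_iff]
    constructor
    · intro h
      exact (h x rfl).symm
    · intro h g hg
      rw [Set.mem_singleton_iff] at hg
      rw [hg]
      exact h.symm
  haveI : Fintype ↥C := Fintype.ofFinite _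
  have hcommx : ∀ (a : ↥C) (u : W), (a : Module.End F W) (x u) = x ((a : Module.End F W) u) := by
    intro a u
    have h1 := (hC a.1).mp a.2
    have h2 := congrArg (fun f : Module.End F W => f u) h1
    exact h2
  have hinj : ∀ a : ↥C, a ≠ 0 → Function.Injective (a : Module.End F W) := by
    intro a ha
    have hker : LinearMap.ker (a : Module.End F W) = ⊥ ∨
        LinearMap.ker (a : Module.End F W) = ⊤ := by
      apply hirr
      intro u hu
      rw [LinearMap.mem_ker] at hu ⊢
      rw [hcommx, hu, map_zero]
    rcases hker with h | h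
    · exact LinearMap.ker_eq_bot.mp h
    · exfalso
      apply ha
      apply Subtype.ext
      exact LinearMap.ker_eq_top.mp h
  haveI : Nontrivial ↥C := ⟨⟨0, 1, by
    intro h
    have h1 := congrArg (fun a : ↥C => (a : Module.End F W) w0) h
    exact hw0 h1.symm⟩⟩
  haveI : NoZeroDivisors ↥C := ⟨by
    intro a b hab
    by_cases ha : a = 0
    · exact Or.inl ha
    · right
      apply Subtype.ext
      apply LinearMap.ext
      intro v
      have h1 : (a : Module.End F W) ((b : Module.End F W) v) = 0 := by
        have h2 := congrArg (fun c : ↥C => (c : Module.End F W) v) hab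
        exact h2
      exact hinj a ha (h1.trans (map_zero _).symm)⟩
  haveI : IsDomain ↥C := NoZeroDivisors.to_isDomain _
  -- the commutant
  have hcomm : ∀ t : W →ₗ[F] W, t * x = x * t ↔ ∃ a : ↥C, (a : Module.End F W) = t := by
    intro t
    rw [← hC]
    constructor
    · intro h
      exact ⟨⟨t, h⟩, rfl⟩
    · rintro ⟨a, rfl⟩
      exact a.2
  -- the cardinality
  have hbij : Function.Bijective (fun a : ↥C => (a : Module.End F W) w0) := by
    constructor
    · intro a b hab
      by_contra hne
      have h1 : a - b ≠ 0 := sub_ne_zero.mpr hne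
      have h2 : ((a - b : ↥C) : Module.End F W) w0 = 0 := by
        have h3 : (a : Module.End F W) w0 = (b : Module.End F W) w0 := hab
        rw [Subalgebra.coe_sub, LinearMap.sub_apply, h3, sub_self]
      exact hw0 (hinj _ h1 (h2.trans (map_zero _).symm))
    · obtain ⟨U, hU⟩ : ∃ U : Submodule F W,
          U = Submodule.map (LinearMap.applyₗ w0 : (W →ₗ[F] W) →ₗ[F] W)
            (Subalgebra.toSubmodule C) := ⟨_, rfl⟩
      have hmem : ∀ y : W, y ∈ U ↔ ∃ a : ↥C, (a : Module.End F W) w0 = y := by
        intro y
        rw [hU, Submodule.mem_map]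
        constructor
        · rintro ⟨f, hf, rfl⟩
          exact ⟨⟨f, hf⟩, rfl⟩
        · rintro ⟨a, rfl⟩
          exact ⟨a.1, a.2, rfl⟩
      have hxC : x ∈ C := (hC x).mpr rfl
      have hUx : ∀ u ∈ U, x u ∈ U := by
        intro u hu
        obtain ⟨a, rfl⟩ := (hmem u).mp hu
        exact (hmem _).mpr ⟨⟨x * a.1, C.mul_mem hxC a.2⟩, rfl⟩
      have hUtop : U = ⊤ := by
        rcases hirr U hUx with h | h
        · exfalso
          have h1 : w0 ∈ U := (hmem w0).mpr ⟨1, rfl⟩
          rw [h, Submodule.mem_bot] at h1
          exact hw0 h1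
        · exact h
      intro y
      have h1 : y ∈ U := by
        rw [hUtop]
        exact Submodule.mem_top
      exact (hmem y).mp h1
  have hcard : Fintype.card ↥C = Fintype.card F ^ finrank F W := by
    haveI : Fintype W := Fintype.ofFinite W
    rw [Fintype.card_of_bijective hbij]
    exact Module.card_eq_pow_finrank
  letI iDR : DivisionRing ↥C := Fintype.divisionRingOfIsDomain ↥C
  letI iF : Field ↥C := littleWedderburn ↥C
  exact ⟨↥C, iF, Subalgebra.algebra C, inferInstance, C.val, Subtype.val_injective,
    hcomm, hcard⟩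

end Cfsg.Agent.Lib.Helper29.Spec
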