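import Mathlib
import Cfsg.Agent.Lib.Helper14.Spec.Defs

/-!
# SPEC (S2362) package [TDET]

An element of the commutant of an irreducible endomorphism in dimension `2 d` whose
`(q ^ d + 1)`-th power is one has determinant one.
-/

set_option autoImplicit false

universe u

namespace Cfsg.Agent.Lib.Helper29.Spec

open Module Cfsg.Agent.Lib.Helper14.Spec

/-- **[TDET]** -/
theorem pkgTorusDet : PkgTorusDet.{u} := by
  intro hModel F _ _ W _ _ _ d hdim x hx t htx htpow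
  classical
  obtain ⟨K, iK, iA, iFin, φ, hφinj, hφ, hcardK⟩ := hModel x hx
  obtain ⟨a, rfl⟩ := (hφ t).mp htx
  obtain ⟨q, hq⟩ : ∃ q : ℕ, q = Fintype.card F := ⟨_, rfl⟩
  rw [← hq] at htpow hcardK
  have hq1 : 1 < q := by
    rw [hq]
    exact Fintype.one_lt_card
  have hqd : 1 ≤ q ^ d := Nat.one_le_pow _ _ (by omega)
  have ha : a ^ (q ^ d + 1) = 1 := by
    apply hφinj
    rw [map_pow, map_one]
    exact htpow
  have ha0 : a ≠ 0 := by
    intro h0
    rw [h0, zero_pow (by omega)] at ha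
    exact zero_ne_one ha
  obtain ⟨g, hg⟩ := IsCyclic.exists_generator (α := Kˣ)
  have hordg : orderOf g = q ^ (2 * d) - 1 := by
    rw [orderOf_eq_card_of_forall_mem_zpowers hg, Nat.card_eq_fintype_card, Fintype.card_units,
      hcardK, hdim]
  obtain ⟨k, hk⟩ : ∃ k : ℕ, g ^ k = Units.mk0 a ha0 := by
    have h1 := hg (Units.mk0 a ha0)
    rw [← mem_powers_iff_mem_zpowers] at h1
    exact (Submonoid.mem_powers_iff _ _).mp h1
  have hdvd : q ^ (2 * d) - 1 ∣ k * (q ^ d + 1) := by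
    rw [← hordg]
    apply orderOf_dvd_of_pow_eq_one
    rw [pow_mul, hk]
    apply Units.ext
    rw [Units.val_pow_eq_pow_val, Units.val_mk0, Units.val_one]
    exact ha
  have hfac : q ^ (2 * d) - 1 = (q ^ d - 1) * (q ^ d + 1) := by
    have h1 : q ^ (2 * d) = q ^ d * q ^ d := by rw [two_mul, pow_add]
    rw [h1]
    generalize q ^ d = Q at hqd
    obtain ⟨Q', rfl⟩ : ∃ Q', Q = Q' + 1 := ⟨Q - 1, by omega⟩
    have h2 : (Q' + 1) * (Q' + 1) = Q' * (Q' + 1 + 1) + 1 := by ring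
    rw [h2, Nat.add_sub_cancel, Nat.add_sub_cancel]
  rw [hfac] at hdvd
  have hdvd' : q ^ d - 1 ∣ k := Nat.dvd_of_mul_dvd_mul_right (by omega) hdvd
  obtain ⟨k', hk'⟩ := hdvd'
  have haz : a = ((g ^ k' : Kˣ) : K) ^ (q ^ d - 1) := by
    have h1 : ((g ^ k : Kˣ) : K) = a := by
      rw [hk]
      rfl
    rw [← h1, hk', Units.val_pow_eq_pow_val, Units.val_pow_eq_pow_val, ← pow_mul, mul_comm]
  obtain ⟨z, hz⟩ : ∃ z : K, z = ((g ^ k' : Kˣ) : K) := ⟨_, rfl⟩
  rw [← hz] at haz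
  have hz0 : z ≠ 0 := by
    rw [hz]
    exact Units.ne_zero _
  have hdetz : LinearMap.det (φ z) ≠ 0 := by
    intro h0
    have h1 : φ z * φ z⁻¹ = 1 := by rw [← map_mul, mul_inv_cancel₀ hz0, map_one]
    have h2 := congrArg LinearMap.det h1
    rw [map_mul, h0, zero_mul, map_one] at h2
    exact zero_ne_one h2
  have hu : LinearMap.det (φ z) ^ (q - 1) = 1 := by
    rw [hq]
    exact FiniteField.pow_card_sub_one_eq_one _ hdetz
  obtain ⟨j, hj⟩ : q - 1 ∣ q ^ d - 1 := by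
    have h1 : q - 1 ∣ q ^ d - 1 ^ d := Nat.sub_dvd_pow_sub_pow q 1 d
    rwa [one_pow] at h1
  rw [haz, map_pow, map_pow, hj, pow_mul, hu, one_pow]

end Cfsg.Agent.Lib.Helper29.Spec
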